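import Mathlib
import Cfsg.Agent.Lib.Helper76.BrRBStmt
import Cfsg.Agent.Lib.CT.Ops
import Cfsg.Agent.Lib.CT.Clifford
import Cfsg.Agent.Lib.CT.KnUtil
import Cfsg.Agent.Lib.CT.Wedderburn

/-!
# S4504, piece EO: excess of a character outside the principal block
-/

set_option autoImplicit false

namespace Cfsg.Agent.Lib.Helper79.BrRBEO

open Cfsg Cfsg.Agent.Lib.CT Cfsg.Agent.Lib.CT.Wedderburn Cfsg.Agent.Lib.CT.Ops
  Cfsg.Agent.Lib.CT.Clifford Cfsg.Agent.Lib.Helper76.BrRB
open scoped ComplexConjugate Classical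

universe u

variable {L : Type u} [Group L] [Fintype L]

/-- `sP` as a sum over a filter. -/
theorem sP_eq_filter {p : ℕ} (P : Sylow p L) (F : L → ℂ) :
    sP P F = ∑ u ∈ Finset.univ.filter (fun u : L => u ∈ (P : Subgroup L)), F u := by
  unfold sP
  rw [Finset.sum_filter]

/-- `sPt` as a sum over a filter. -/
theorem sPt_eq_filter {p : ℕ} (P : Sylow p L) (F : L → ℂ) (k : L) :
    sPt P F k = ∑ u ∈ Finset.univ.filter (fun u : L => u ∈ (P : Subgroup L)), F (u * k) := by
  unfold sPt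
  rw [Finset.sum_filter]

/-- The sum of a character over `P` is `|P|` times a natural number. -/
theorem sP_nat {p : ℕ} (P : Sylow p L) (hP : Nat.card (P : Subgroup L) = p) (ψ : L → ℂ)
    (hψ : IsCharacter L ψ) : ∃ f : ℕ, sP P ψ = (p : ℂ) * (f : ℂ) := by
  have hFP : Fintype ↥(P : Subgroup L) := Fintype.ofFinite _
  have h1 : IsCharacter ↥(P : Subgroup L) (fun u : ↥(P : Subgroup L) => ψ (u : L)) :=
    isCharacter_restrict _ hψ
  obtain ⟨m, hm⟩ := classInner_char_nat h1 (isCharacter_one (G := ↥(P : Subgroup L)))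
  refine ⟨m, ?_⟩
  unfold classInner at hm
  have hp0 : (Nat.card ↥(P : Subgroup L) : ℂ) ≠ 0 := Nat.cast_ne_zero.mpr Nat.card_pos.ne'
  have h2 : ∑ u : ↥(P : Subgroup L), ψ (u : L) = (p : ℂ) * (m : ℂ) := by
    have hpc : (p : ℂ) = (Nat.card ↥(P : Subgroup L) : ℂ) := by rw [hP]
    rw [← hm, ← mul_assoc, hpc, mul_inv_cancel₀ hp0, one_mul]
    refine Finset.sum_congr rfl fun u _ => ?_
    simp
  rw [sP_eq_filter, ← h2]
  exact Finset.sum_subtype (Finset.univ.filter (fun u : L => u ∈ (P : Subgroup L)))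
    (fun u => by simp) ψ

theorem main : EO.{u} := by
  intro L _ _ p _ P hP ψ hψ hvan hfix
  have hp : p.Prime := Fact.out
  have hψc : IsCharacter L ψ := isCharacter_of_irr hψ
  obtain ⟨f, hf⟩ := sP_nat P hP ψ hψc
  refine ⟨f, hf, ?_⟩
  have hd : (charDegree ψ : ℂ) = ψ 1 := char_natCast_charDegree hψc
  have hdpos : 0 < charDegree ψ := irr_charDegree_pos hψ
  obtain ⟨T, hT⟩ : ∃ T : Finset L, T = Finset.univ.filter
      (fun k : L => k ∈ Subgroup.centralizer ((P : Subgroup L) : Set L) ∧ ¬ p ∣ orderOf k) :=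
    ⟨_, rfl⟩
  have hmemT : ∀ k : L, k ∈ T ↔
      (k ∈ Subgroup.centralizer ((P : Subgroup L) : Set L) ∧ ¬ p ∣ orderOf k) := by
    intro k
    rw [hT]
    simp
  have h1T : (1 : L) ∈ T := by
    rw [hmemT]
    refine ⟨Subgroup.one_mem _, ?_⟩
    rw [orderOf_one]
    exact hp.one_lt.ne' ∘ Nat.dvd_one.mp
  have hTpos : 0 < T.card := Finset.card_pos.mpr ⟨1, h1T⟩
  -- the vanishing hypothesis as a finset sum
  have hvan' : ∀ u : L, u ∈ (P : Subgroup L) → u ≠ 1 → ∑ k ∈ T, ψ (u * k) = 0 := by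
    intro u hu hu1
    have h := hvan u hu hu1
    rw [finsum_mem_def, finsum_eq_sum_of_fintype] at h
    rw [← h, hT, Finset.sum_filter]
    refine Finset.sum_congr rfl fun k _ => ?_
    rw [Set.indicator_apply]
    rfl
  -- double count
  have e1 : ∑ k ∈ T, sPt P ψ k = (T.card : ℂ) * ((p : ℂ) * (f : ℂ)) := by
    rw [Finset.sum_congr rfl (fun k hk => hfix k ((hmemT k).mp hk).1 ((hmemT k).mp hk).2),
      Finset.sum_const, hf, nsmul_eq_mul]
  have e2 : ∑ k ∈ T, sPt P ψ k = ∑ k ∈ T, ψ k := by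
    rw [Finset.sum_congr rfl (fun k _ => sPt_eq_filter P ψ k), Finset.sum_comm]
    have h1P : (1 : L) ∈ Finset.univ.filter (fun u : L => u ∈ (P : Subgroup L)) := by
      simp
    rw [Finset.sum_eq_single_of_mem 1 h1P (fun u hu hne => hvan' u (by simpa using hu) hne)]
    refine Finset.sum_congr rfl fun k _ => ?_
    rw [one_mul]
  have e3 : ‖∑ k ∈ T, ψ k‖ ≤ (T.card : ℝ) * (charDegree ψ : ℝ) := by
    refine (norm_sum_le _ _).trans ?_
    have : ∀ k ∈ T, ‖ψ k‖ ≤ (charDegree ψ : ℝ) := by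
      intro k _
      have h := Cfsg.Agent.Lib.CT.KnUtil.norm_le_apply_one hψc k
      rw [← hd] at h
      simpa using h
    refine (Finset.sum_le_sum this).trans ?_
    rw [Finset.sum_const, nsmul_eq_mul]
  have e4 : (T.card : ℝ) * ((p : ℝ) * (f : ℝ)) ≤ (T.card : ℝ) * (charDegree ψ : ℝ) := by
    rw [← e2, e1] at e3
    have hn : ‖(T.card : ℂ) * ((p : ℂ) * (f : ℂ))‖ = (T.card : ℝ) * ((p : ℝ) * (f : ℝ)) := by
      have : (T.card : ℂ) * ((p : ℂ) * (f : ℂ)) = ((T.card * (p * f) : ℕ) : ℂ) := by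
        push_cast
        ring
      rw [this, Complex.norm_natCast]
      push_cast
      ring
    rw [hn] at e3
    exact e3
  have e5 : (p : ℝ) * (f : ℝ) ≤ (charDegree ψ : ℝ) :=
    le_of_mul_le_mul_left e4 (Nat.cast_pos.mpr hTpos)
  have e6 : p * f ≤ charDegree ψ := by exact_mod_cast e5
  have hp2 : 2 ≤ p := hp.two_le
  rcases Nat.eq_zero_or_pos f with h0 | hpos
  · rw [h0]
    omega
  · have h3 : (p + 1) * f < 2 * (p * f) := by
      have : f < p * f := by
        calc f = 1 * f := (one_mul f).symm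
          _ < p * f := Nat.mul_lt_mul_of_pos_right (by omega) hpos
      calc (p + 1) * f = p * f + f := by ring
        _ < p * f + p * f := by omega
        _ = 2 * (p * f) := by ring
    omega

end Cfsg.Agent.Lib.Helper79.BrRBEO
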