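import Mathlib
import Cfsg.Agent.Lib.Helper75.DCStmt
import Cfsg.Agent.S4717

/-!
# S4719, piece CB: under the induction hypothesis, the involutions of `E` have bounded
centralizers
-/

set_option autoImplicit false

namespace Cfsg.Agent.Lib.Helper79.DCCB

open Cfsg Cfsg.Agent.Lib.Helper75.DCStmt

universe u

/-- A group `X` of deficiency class `r + 1` with a central involution `z` inside an elementary
abelian subgroup of order `2 ^ (r + 2)` is bounded, under the induction hypothesis for `r`. -/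
theorem key (hDQ : DQ.{u}) (r a : ℕ) (Nf : ℕ → ℕ) (hBd : ∀ a' : ℕ, Bd.{u} r a' (Nf a'))
    (X : Type u) [Group X] [Finite X] (M : Ideal AlgInt) (hM : IsPModular 2 M) (z : X)
    (hz : z ∈ Subgroup.center X) (hz1 : z ≠ 1) (hzz : z * z = 1) (hDC : DC M X (r + 1))
    (E : Subgroup X) (hEc : ∀ u ∈ E, ∀ v ∈ E, u * v = v * u) (hE2 : ∀ u ∈ E, u * u = 1)
    (hEcard : Nat.card E = 2 ^ (r + 2)) (hzE : z ∈ E)
    (ha : (Nat.card X).factorization 2 ≤ a) :
    Nat.card X ≤ 2 * ∑ a' ∈ Finset.range a, Nf a' := by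
  classical
  have hfact : Fact (Nat.Prime 2) := Nat.fact_prime_two
  obtain ⟨Z, hZdef⟩ : ∃ Z : Subgroup X, Z = Subgroup.zpowers z := ⟨_, rfl⟩
  have hZc : Z ≤ Subgroup.center X := by
    rw [hZdef]
    exact Subgroup.zpowers_le.mpr hz
  have hZn : Z.Normal := by
    refine ⟨fun n hn g => ?_⟩
    have h1 : g * n = n * g := Subgroup.mem_center_iff.mp (hZc hn) g
    have h2 : g * n * g⁻¹ = n := by
      rw [h1, mul_assoc, mul_inv_cancel, mul_one]
    rw [h2]
    exact hn
  have hzord : orderOf z = 2 := orderOf_eq_prime (by rw [pow_two]; exact hzz) hz1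
  have hZcard : Nat.card Z = 2 := by
    rw [hZdef, Nat.card_zpowers, hzord]
  have hZE : Z ≤ E := by
    rw [hZdef]
    exact Subgroup.zpowers_le.mpr hzE
  have hDCq : DC M (X ⧸ Z) r := hDQ X M hM Z hZc hZcard r hDC
  -- the image of `E`
  obtain ⟨f, hf⟩ : ∃ f : X →* X ⧸ Z, f = QuotientGroup.mk' Z := ⟨_, rfl⟩
  have hfker : f.ker = Z := by
    rw [hf]
    exact QuotientGroup.ker_mk' Z
  have hEbar : Nat.card ↥(E.map f) = 2 ^ (r + 1) := by
    have h1 : (f.domRestrict E).range = E.map f := MonoidHom.domRestrict_range E f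
    have h2 : (f.domRestrict E).ker = Z.subgroupOf E := by
      rw [MonoidHom.ker_domRestrict, hfker]
    have h3 : Nat.card ↥(Z.subgroupOf E) = 2 := by
      rw [Nat.card_congr (Subgroup.subgroupOfEquivOfLe hZE).toEquiv, hZcard]
    have h4 := Subgroup.card_mul_index (f.domRestrict E).ker
    rw [Subgroup.index_ker, h1, h2, h3, hEcard, pow_succ] at h4
    omega
  have hEbarp : IsPGroup 2 ↥(E.map f) := IsPGroup.of_card hEbar
  obtain ⟨Pb, hPb⟩ := hEbarp.exists_le_sylow
  have hPbcard : Nat.card Pb = 2 ^ (Nat.card (X ⧸ Z)).factorization 2 := Pb.card_eq_multiplicity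
  have hXcard : Nat.card X = Nat.card (X ⧸ Z) * 2 := by
    rw [Subgroup.card_eq_card_quotient_mul_card_subgroup Z, hZcard]
  have hq0 : Nat.card (X ⧸ Z) ≠ 0 := Nat.card_pos.ne'
  have hfac : (Nat.card X).factorization 2 = (Nat.card (X ⧸ Z)).factorization 2 + 1 := by
    rw [hXcard, Nat.factorization_mul hq0 (by norm_num)]
    simp [Nat.Prime.factorization_self Nat.prime_two]
  have hlt : (Nat.card (X ⧸ Z)).factorization 2 ∈ Finset.range a := by
    rw [Finset.mem_range]
    omega
  have hcomm : IsMulCommutative ↥(E.map f) := by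
    refine ⟨⟨fun u v => ?_⟩⟩
    obtain ⟨u, hu⟩ := u
    obtain ⟨v, hv⟩ := v
    obtain ⟨u', hu', rfl⟩ := Subgroup.mem_map.mp hu
    obtain ⟨v', hv', rfl⟩ := Subgroup.mem_map.mp hv
    apply Subtype.ext
    show f u' * f v' = f v' * f u'
    rw [← map_mul, ← map_mul, hEc u' hu' v' hv']
  have hexp : ∀ y ∈ E.map f, y * y = 1 := by
    intro y hy
    obtain ⟨u', hu', rfl⟩ := Subgroup.mem_map.mp hy
    rw [← map_mul, hE2 u' hu', map_one]
  have hb := hBd ((Nat.card (X ⧸ Z)).factorization 2) (X ⧸ Z) M Pb hM hPbcard hDCq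
    ⟨E.map f, hPb, hcomm, hexp, hEbar⟩
  have hs : Nf ((Nat.card (X ⧸ Z)).factorization 2) ≤ ∑ a' ∈ Finset.range a, Nf a' :=
    Finset.single_le_sum (f := Nf) (fun _ _ => Nat.zero_le _) hlt
  rw [hXcard]
  omega

theorem main (hDQ : DQ.{u}) : CB.{u} := by
  intro r a Nf hBd G _ _ M P hM hPcard hDC E hEP hEc hE2 hEcard x hxE hx1
  classical
  have hfact : Fact (Nat.Prime 2) := Nat.fact_prime_two
  have hxx : x * x = 1 := hE2 x hxE
  have hxord : orderOf x = 2 := orderOf_eq_prime (by rw [pow_two]; exact hxx) hx1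
  have hcomm : ∀ u ∈ E, ∀ v ∈ E, u * v = v * u := by
    intro u hu v hv
    have h := hEc.is_comm.comm (⟨u, hu⟩ : ↥E) ⟨v, hv⟩
    exact congrArg Subtype.val h
  have hEX : E ≤ Subgroup.centralizer ({x} : Set G) := by
    intro u hu
    rw [Subgroup.mem_centralizer_iff]
    intro y hy
    rw [Set.mem_singleton_iff] at hy
    rw [hy]
    exact hcomm x hxE u hu
  have hxX : x ∈ Subgroup.centralizer ({x} : Set G) := hEX hxE
  have hDCX : DC M ↥(Subgroup.centralizer ({x} : Set G)) (r + 1) := by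
    intro B hB hne
    exact (Cfsg.Agent.S4717.result 2 M hM (r + 1)).1 hDC x ⟨1, by rw [hxord, pow_one]⟩ B hB hne
  have hG2 : (Nat.card G).factorization 2 = a := by
    have h1 := P.card_eq_multiplicity
    rw [hPcard] at h1
    exact (Nat.pow_right_injective (le_refl 2) h1).symm
  have ha : (Nat.card ↥(Subgroup.centralizer ({x} : Set G))).factorization 2 ≤ a := by
    rw [← hG2]
    exact (Nat.factorization_le_iff_dvd Nat.card_pos.ne' Nat.card_pos.ne').mpr
      (Subgroup.card_subgroup_dvd_card _) 2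
  refine key hDQ r a Nf hBd ↥(Subgroup.centralizer ({x} : Set G)) M hM ⟨x, hxX⟩ ?_ ?_ ?_ hDCX
    (E.subgroupOf (Subgroup.centralizer ({x} : Set G))) ?_ ?_ ?_ ?_ ha
  · rw [Subgroup.mem_center_iff]
    intro g
    apply Subtype.ext
    have h := g.2
    rw [Subgroup.mem_centralizer_iff] at h
    exact (h x rfl).symm
  · intro h
    exact hx1 (congrArg Subtype.val h)
  · apply Subtype.ext
    exact hxx
  · intro u hu v hv
    apply Subtype.ext
    exact hcomm u hu v hv
  · intro u hu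
    apply Subtype.ext
    exact hE2 u hu
  · rw [Nat.card_congr (Subgroup.subgroupOfEquivOfLe hEX).toEquiv, hEcard]
  · exact hxE

end Cfsg.Agent.Lib.Helper79.DCCB
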