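import Mathlib
import Cfsg.Agent.Lib.Helper74.DixStmt
import Cfsg.Agent.Lib.CT.IndChar
import Cfsg.Agent.Lib.CT.Wedderburn
import Cfsg.Agent.Lib.CT.FrobRec

/-!
S4472, piece ORB: the character induced from the canonical extension of `θ` to its stabilizer
restricts to `K` as the sum of the orbit of `θ`.
-/

set_option autoImplicit false

namespace Cfsg.Agent.Lib.Helper79.DixORB

open Cfsg Cfsg.Agent.Lib.Helper74.DixStmt Cfsg.Agent.Lib.CT

universe u

/-- The conjugate of a function on a normal subgroup. -/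
def cj {L : Type u} [Group L] (K : Subgroup L) (hK : K.Normal) (θ : K → ℂ) (g : L) : K → ℂ :=
  fun k : K => θ ⟨g * k * g⁻¹, hK.conj_mem k k.2 g⟩

theorem cj_mul {L : Type u} [Group L] (K : Subgroup L) (hK : K.Normal) (θ : K → ℂ) (g h : L)
    (k : K) : cj K hK θ (g * h) k = cj K hK θ g ⟨h * k * h⁻¹, hK.conj_mem k k.2 h⟩ := by
  unfold cj
  congr 1
  apply Subtype.ext
  simp [mul_assoc]

theorem cj_one {L : Type u} [Group L] (K : Subgroup L) (hK : K.Normal) (θ : K → ℂ) :
    cj K hK θ 1 = θ := by
  funext k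
  unfold cj
  congr 1
  apply Subtype.ext
  simp

/-- The stabilizer of `θ`. -/
def stab {L : Type u} [Group L] (K : Subgroup L) (hK : K.Normal) (θ : K → ℂ) : Subgroup L where
  carrier := {g | cj K hK θ g = θ}
  one_mem' := cj_one K hK θ
  mul_mem' := by
    intro a b ha hb
    simp only [Set.mem_ofPred_eq] at ha hb ⊢
    funext k
    rw [cj_mul, ha]
    exact congrFun hb k
  inv_mem' := by
    intro a ha
    simp only [Set.mem_ofPred_eq] at ha ⊢
    funext k
    have h1 : cj K hK θ (a * a⁻¹) k = θ k := by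
      rw [mul_inv_cancel, cj_one]
    rw [cj_mul, ha] at h1
    exact h1

theorem mem_stab {L : Type u} [Group L] (K : Subgroup L) (hK : K.Normal) (θ : K → ℂ) (g : L) :
    g ∈ stab K hK θ ↔ cj K hK θ g = θ := Iff.rfl

theorem cj_eq_iff {L : Type u} [Group L] (K : Subgroup L) (hK : K.Normal) (θ : K → ℂ)
    (x y : L) : cj K hK θ x = cj K hK θ y ↔ x * y⁻¹ ∈ stab K hK θ := by
  rw [mem_stab]
  constructor
  · intro h
    funext k
    rw [cj_mul, h]
    unfold cj
    congr 1
    apply Subtype.ext
    simp [mul_assoc]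
  · intro h
    funext k
    have h1 : cj K hK θ (x * y⁻¹ * y) k = cj K hK θ x k := by
      rw [inv_mul_cancel_right]
    rw [← h1, cj_mul, h]
    rfl

theorem card_fiber {L : Type u} [Group L] [Fintype L]
    (K : Subgroup L) (hK : K.Normal) (θ : K → ℂ) (y : L)
    [DecidablePred (fun x : L => cj K hK θ x = cj K hK θ y)] :
    (Finset.univ.filter (fun x : L => cj K hK θ x = cj K hK θ y)).card
      = Nat.card (stab K hK θ) := by
  haveI : Fintype (stab K hK θ) := Fintype.ofFinite _
  rw [Nat.card_eq_fintype_card, ← Finset.card_univ]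
  symm
  apply Finset.card_bij (fun (t : stab K hK θ) _ => (t : L) * y)
  · intro t _
    rw [Finset.mem_filter]
    refine ⟨Finset.mem_univ _, ?_⟩
    rw [cj_eq_iff, mul_inv_cancel_right]
    exact t.2
  · intro a _ b _ h
    exact Subtype.ext (mul_right_cancel h)
  · intro x hx
    rw [Finset.mem_filter] at hx
    refine ⟨⟨x * y⁻¹, (cj_eq_iff K hK θ x y).1 hx.2⟩, Finset.mem_univ _, ?_⟩
    simp

theorem main (hE : ExtSub.{u}) : OrbProp.{u} := by
  intro L _ _ p _ K hK hcop hidx θ hθ
  classical
  haveI : Fintype L := Fintype.ofFinite L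
  have hcls : IsClassFunction K θ := Wedderburn.char_isClassFunction (Wedderburn.isCharacter_of_irr hθ)
  have hKT : K ≤ stab K hK θ := by
    intro g hg
    rw [mem_stab]
    funext k
    exact hcls k ⟨g, hg⟩
  obtain ⟨ψ, hψ, hψK, hψC⟩ := hE p K hcop hidx (stab K hK θ) hKT θ hθ (by
    intro g hg k
    exact congrFun ((mem_stab K hK θ g).1 hg) k)
  have hT0 : (Nat.card (stab K hK θ) : ℂ) ≠ 0 := by
    exact_mod_cast (Nat.card_pos (α := stab K hK θ)).ne'
  refine ⟨indFun (stab K hK θ) ψ, IndChar.isCharacter_indFun _ ψ hψ, ?_, ?_⟩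
  · intro g
    rw [FrobRec.indFun_apply]
    apply mul_mem
    · exact inv_mem (natCast_mem _ _)
    · apply sum_mem
      intro x _
      by_cases hx : x⁻¹ * g * x ∈ stab K hK θ
      · rw [FrobRec.extendByZero_apply_of_mem _ ψ hx]
        exact hψC _
      · rw [FrobRec.extendByZero_apply_of_not_mem _ ψ hx]
        exact zero_mem _
  · refine ⟨Finset.univ.image (cj K hK θ), ?_, ?_⟩
    · intro φ
      rw [Finset.mem_image]
      constructor
      · rintro ⟨g, _, rfl⟩
        exact ⟨g, rfl⟩
      · rintro ⟨g, rfl⟩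
        exact ⟨g, Finset.mem_univ _, rfl⟩
    · intro k
      rw [FrobRec.indFun_apply]
      have h1 : ∀ x : L, extendByZero (stab K hK θ) ψ (x⁻¹ * (k : L) * x) = cj K hK θ x⁻¹ k := by
        intro x
        have hxK : x⁻¹ * (k : L) * x ∈ K := by
          have := hK.conj_mem k k.2 x⁻¹
          rwa [inv_inv] at this
        rw [FrobRec.extendByZero_apply_of_mem _ ψ (hKT hxK)]
        rw [hψK ⟨x⁻¹ * (k : L) * x, hxK⟩]
        unfold cj
        congr 1
        apply Subtype.ext
        simp
      rw [Finset.sum_congr rfl (fun x _ => h1 x)]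
      have h2 : ∑ x : L, cj K hK θ x⁻¹ k = ∑ x : L, cj K hK θ x k :=
        Fintype.sum_equiv (Equiv.inv L) (fun x => cj K hK θ x⁻¹ k) (fun x => cj K hK θ x k)
          (fun x => rfl)
      rw [h2]
      have h3 : ∑ x : L, cj K hK θ x k
          = ∑ φ ∈ Finset.univ.image (cj K hK θ),
              ∑ x ∈ Finset.univ.filter (fun x : L => cj K hK θ x = φ), cj K hK θ x k := by
        rw [Finset.sum_fiberwise_of_maps_to]
        intro x _
        exact Finset.mem_image_of_mem _ (Finset.mem_univ _)
      rw [h3, Finset.mul_sum]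
      apply Finset.sum_congr rfl
      intro φ hφ
      rw [Finset.mem_image] at hφ
      obtain ⟨y, _, rfl⟩ := hφ
      have h4 : ∑ x ∈ Finset.univ.filter (fun x : L => cj K hK θ x = cj K hK θ y), cj K hK θ x k
          = ∑ x ∈ Finset.univ.filter (fun x : L => cj K hK θ x = cj K hK θ y), cj K hK θ y k := by
        apply Finset.sum_congr rfl
        intro x hx
        rw [Finset.mem_filter] at hx
        rw [hx.2]
      rw [h4, Finset.sum_const, card_fiber, nsmul_eq_mul, ← mul_assoc, inv_mul_cancel₀ hT0, one_mul]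

end Cfsg.Agent.Lib.Helper79.DixORB
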