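import Mathlib
import Cfsg.Agent.Lib.Helper80.S4705Stmt
import Cfsg.Agent.Lib.Helper80.Core
import Cfsg.Agent.Lib.CT.Wedderburn

/-!
# S4705, piece DET: in a perfect group, central elements have order dividing the degree of a
faithful irreducible character
-/

set_option autoImplicit false

namespace Cfsg.Agent.Lib.Helper79.FTDET

open Cfsg Cfsg.Agent.Lib.CT.Wedderburn Cfsg.Agent.Lib.Helper80.S4705Stmt

universe u

theorem main : Det.{u} := by
  intro G _ _ ζ hperf hζ hfaith z hz
  classical
  obtain ⟨n, ρ, hρ, rfl⟩ := hζ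
  have hirr : ρ.IsIrreducible := hρ
  -- the determinant is trivial
  obtain ⟨d, hd⟩ : ∃ d : G →* ℂˣ, d = ((LinearMap.det : ((Fin n → ℂ) →ₗ[ℂ] (Fin n → ℂ)) →* ℂ).comp ρ).toHomUnits := ⟨_, rfl⟩
  have hdker : d.ker = ⊤ := by
    apply top_le_iff.mp
    rw [← hperf]
    exact Abelianization.commutator_subset_ker d
  have hdet : ∀ g : G, LinearMap.det (ρ g) = 1 := by
    intro g
    have h1 : d g = 1 := by
      have : g ∈ d.ker := by
        rw [hdker]
        exact Subgroup.mem_top g
      exact this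
    have h2 : ((d g : ℂˣ) : ℂ) = LinearMap.det (ρ g) := by
      rw [hd]
      rfl
    rw [← h2, h1]
    rfl
  obtain ⟨c, -, hc, -⟩ := Cfsg.Agent.Lib.Helper80.Core.exists_scalar_of_mem_center ρ z hz
  have hcn : c ^ n = 1 := by
    have h1 := hdet z
    rw [hc, LinearMap.det_smul, Module.finrank_fin_fun, map_one, mul_one] at h1
    exact h1
  have hdeg : charDegree ρ.character = n := by
    apply charDegree_eq_of_apply_one
    rw [Representation.char_one, Module.finrank_fin_fun]
  rw [hdeg]
  apply hfaith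
  have h2 : ρ (z ^ n) = 1 := by
    rw [map_pow, hc, smul_pow, one_pow, hcn, one_smul]
  show LinearMap.trace ℂ _ (ρ (z ^ n)) = LinearMap.trace ℂ _ (ρ 1)
  rw [h2, ← (map_one ρ)]

end Cfsg.Agent.Lib.Helper79.FTDET
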