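import Mathlib
import Cfsg.Agent.Lib.Helper14.TC3Stmt
import Cfsg.Agent.Lib.Helper79.RMNSYLA
import Cfsg.Agent.Lib.Helper3.MGroup
import Cfsg.Agent.Lib.CT.LinChar
import Cfsg.Agent.Lib.CT.Wedderburn

set_option autoImplicit false

/-! S4460 piece [EAB2C]: `E ≤ L'` and `NonlinDvd ↥L r`. -/

namespace Cfsg.Agent.Lib.Helper79.TC3EAB2C

open Cfsg Cfsg.Agent.Lib.Helper14.TC3Stmt
open Cfsg.Agent.Lib.CT.Wedderburn
open scoped commutatorElement

universe u

/-- the commutator subgroup of `↥L`, mapped to `G`, is `⁅L, L⁆`. -/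
theorem map_commutator_subtype {G : Type u} [Group G] (L : Subgroup G) :
    (commutator ↥L).map L.subtype = ⁅L, L⁆ := by
  rw [commutator_def, Subgroup.map_commutator]
  rw [← MonoidHom.range_eq_map, Subgroup.range_subtype]

theorem main : EAB2c.{u} := by
  intro G _ _ L E r hL hr hEL hLE hθ
  classical
  constructor
  · -- `E ≤ ⁅L, L⁆`
    intro x hx
    have hxL : x ∈ L := hEL hx
    have h1 : (⟨x, hxL⟩ : ↥L) ∈ commutator ↥L := by
      apply Cfsg.Agent.Lib.Helper79.RMNSYLA.mem_commutator_of_hom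
      intro f
      have hirr := Cfsg.Agent.Lib.CT.LinChar.isIrrCharacter_of_hom f
      have hdeg : charDegree (fun g : ↥L => ((f g : ℂˣ) : ℂ)) = 1 := by
        apply charDegree_eq_of_apply_one
        simp
      have h2 := hθ ⟨_, hirr⟩ (by
        show ¬ r ∣ charDegree (fun g : ↥L => ((f g : ℂˣ) : ℂ))
        rw [hdeg]
        exact hr.one_lt.ne' ∘ Nat.dvd_one.1) ⟨x, hxL⟩ hx
      have h3 : ((f ⟨x, hxL⟩ : ℂˣ) : ℂ) = ((f 1 : ℂˣ) : ℂ) := h2
      rw [map_one] at h3
      exact Units.ext h3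
    rw [← map_commutator_subtype]
    exact ⟨⟨x, hxL⟩, h1, rfl⟩
  · -- `NonlinDvd ↥L r`
    intro θ hne
    by_contra hnd
    apply hne
    have h1 : (θ : ↥L → ℂ) 1 = 1 :=
      Cfsg.Agent.Lib.Helper3.MGroup.apply_one_eq_one_of_comm θ.2 (fun a b => by
        apply hθ θ hnd ⁅a, b⁆
        apply hLE
        have : ((⁅a, b⁆ : ↥L) : G) = ⁅(a : G), (b : G)⁆ := by
          simp [commutatorElement_def]
        rw [this]
        exact Subgroup.commutator_mem_commutator a.2 b.2)
    apply charDegree_eq_of_apply_one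
    rw [h1]
    simp
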