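import Mathlib
import Cfsg.Agent.Lib.Helper74.WinStmt
import Cfsg.Agent.Lib.Helper78.CliffordCorr
import Cfsg.Agent.Lib.Helper16.Cover
import Cfsg.Agent.Lib.Helper3.MGroup
import Cfsg.Agent.Lib.CT.Kernel
import Cfsg.Agent.Lib.CT.Clifford
import Cfsg.Agent.Lib.CT.LinChar
import Cfsg.Agent.Lib.Helper80.Integrality

set_option autoImplicit false

/-! S4467 piece [R3A]: Clifford for an abelian normal subgroup. -/

namespace Cfsg.Agent.Lib.Helper79.WinR3A

open Cfsg Cfsg.Agent.Lib.Helper74.WinStmt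
open Cfsg.Agent.Lib.CT.Wedderburn Cfsg.Agent.Lib.CT.Clifford
open Cfsg.Agent.Lib.Helper78.CliffordCorr
open scoped commutatorElement

universe u

theorem main : R3a.{u} := by
  intro G _ _ χ hfaith A hA hab
  classical
  haveI := Fintype.ofFinite G
  haveI : Fintype A := Fintype.ofFinite A
  obtain ⟨μ, hμ⟩ := Cfsg.Agent.Lib.Helper16.Cover.exists_constituent A χ
  obtain ⟨T, hTdef⟩ : ∃ T : Subgroup G, T = inertia A hA μ.1 := ⟨_, rfl⟩
  haveI : Fintype T := Fintype.ofFinite T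
  have hcf : IsClassFunction A μ.1 := char_isClassFunction (isCharacter_of_irr μ.2)
  have hAT : A ≤ T := by rw [hTdef]; exact le_inertia A hA hcf
  have hTmem : ∀ g : G, g ∈ T ↔
      ∀ n : A, μ.1 ⟨g * n * g⁻¹, hA.conj_mem (n : G) n.2 g⟩ = μ.1 n := fun g => by
    rw [hTdef]; exact mem_inertia A hA μ.1 g
  obtain ⟨ψ, e, hψ, hind, he, hinner, hres, hdeg⟩ :=
    clifford_corr A hA μ.1 μ.2 T hTmem hAT χ.1 χ.2 hμ
  refine ⟨T, ⟨e * charDegree μ.1, by rw [hdeg]; ring⟩, ?_⟩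
  intro hT a ha
  -- `μ` is linear
  have hμ1 : μ.1 1 = 1 :=
    Cfsg.Agent.Lib.Helper3.MGroup.apply_one_eq_one_of_comm μ.2 (fun x y => by
      have h1 : (⁅x, y⁆ : ↥A) = 1 := by
        rw [commutatorElement_eq_one_iff_mul_comm]
        exact Subtype.ext (hab x x.2 y y.2)
      rw [h1])
  -- Clifford: the restriction is a multiple of `μ`
  have hcl := clifford A hA χ.1 χ.2 μ.1 μ.2 hμ
  have hset : {ψ' : A → ℂ | ∃ g : G,
      ψ' = fun n : A => μ.1 ⟨g * n * g⁻¹, hA.conj_mem n n.2 g⟩} = {μ.1} := by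
    ext ψ'
    simp only [Set.mem_ofPred_eq, Set.mem_singleton_iff]
    constructor
    · rintro ⟨g, rfl⟩
      funext n
      exact (hTmem g).1 (by rw [hT]; trivial) n
    · intro h
      refine ⟨1, ?_⟩
      rw [h]
      funext n
      have h5 : (⟨1 * (n : G) * 1⁻¹, hA.conj_mem n n.2 1⟩ : A) = n := Subtype.ext (by group)
      rw [h5]
  rw [hset, finsum_mem_singleton] at hcl
  have hval : ∀ n : A, χ.1 n = classInner (fun n : A => χ.1 n) μ.1 * μ.1 n := fun n => by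
    have := congrFun hcl n
    simpa using this
  have h1 := hval 1
  rw [hμ1, mul_one] at h1
  have hχa : χ.1 a = χ.1 1 * μ.1 ⟨a, ha⟩ := by
    have h2 := hval ⟨a, ha⟩
    have h3 : ((1 : A) : G) = 1 := rfl
    rw [h3] at h1
    rw [← h1] at h2
    exact h2
  have hχc : IsCharacter G χ.1 := isCharacter_of_irr χ.2
  have hnorm : ‖χ.1 a‖ = (χ.1 1).re := by
    rw [hχa, norm_mul,
      Cfsg.Agent.Lib.CT.LinChar.linear_norm (isCharacter_of_irr μ.2) hμ1, mul_one,
      Cfsg.Agent.Lib.Helper80.Integrality.apply_one_eq_charDegree hχc]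
    simp
  exact Cfsg.Agent.Lib.CT.Kernel.mem_center_of_norm_eq hχc hfaith hnorm
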